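import Cfsg.Agent.H931.CopPsu
import Cfsg.Agent.H307.HermCW

/-!
# No coprime class sizes in `PSU_n(q)`, `n ≥ 4` (task 214; for S4158)
-/

set_option autoImplicit false

namespace Cfsg.Agent.H931.CopPsu

open Matrix Subgroup Cfsg Cfsg.Agent.H530.Cop
open Cfsg.Agent.LieClassical.HermBasic Cfsg.Agent.LieClassical.HermSiegel
open Cfsg.Agent.H307.HermCW (qf exists_common)

variable {F : Type} [Field F] [Fintype F] {n q : ℕ}

/-- for `n ≥ 4` and any matrix `Y` there is an isotropic `v ≠ 0` with `h(v, Y v) = 0` -/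
theorem exists_isotropic (hF : Fintype.card F = q ^ 2) (hn : 4 ≤ n) (Y : Matrix (Fin n) (Fin n) F) :
    ∃ v : Fin n → F, v ≠ 0 ∧ hermForm n F q v v = 0 ∧ hermForm n F q v (Y *ᵥ v) = 0 := by
  classical
  obtain ⟨a, ha⟩ := exists_not_fixed hF
  let M : Fin 3 → Fin n → Fin n → F := ![fun i j => if i = j then 1 else 0,
    fun i j => Y i j ^ q + Y j i, fun i j => a * Y i j ^ q + a ^ q * Y j i]
  have hM : ∀ k i j, M k i j ^ q = M k j i := by
    intro k i j
    fin_cases k
    · change (if i = j then (1 : F) else 0) ^ q = if j = i then 1 else 0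
      by_cases h : i = j
      · rw [if_pos h, if_pos h.symm, one_pow]
      · rw [if_neg h, if_neg (Ne.symm h), zero_pow_q hF]
    · change (Y i j ^ q + Y j i) ^ q = Y j i ^ q + Y i j
      rw [add_pow_q hF, pow_q_pow_q hF, add_comm]
    · change (a * Y i j ^ q + a ^ q * Y j i) ^ q = a * Y j i ^ q + a ^ q * Y i j
      rw [add_pow_q hF, mul_pow, mul_pow, pow_q_pow_q hF, pow_q_pow_q hF, add_comm]
  obtain ⟨v, hv0, hv⟩ := exists_common hF M hM (by simp; omega)
  have h0 : hermForm n F q v v = 0 := by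
    rw [← hv 0, herm_def]
    unfold qf
    refine Finset.sum_congr rfl fun i _ => ?_
    change _ = ∑ j, (if i = j then (1 : F) else 0) * v i * v j ^ q
    rw [Finset.sum_eq_single i (fun j _ hj => by rw [if_neg (Ne.symm hj)]; ring)
      (fun h => absurd (Finset.mem_univ _) h), if_pos rfl, one_mul]
  set B := hermForm n F q v (Y *ᵥ v) with hB
  have hB1 : B = ∑ i, ∑ j, Y i j ^ q * v i * v j ^ q := by
    rw [hB, herm_def]
    refine Finset.sum_congr rfl fun i _ => ?_
    rw [mulVec, dotProduct, sum_pow_q hF, Finset.mul_sum]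
    refine Finset.sum_congr rfl fun j _ => ?_
    rw [mul_pow]
    ring
  have hB2 : B ^ q = ∑ i, ∑ j, Y j i * v i * v j ^ q := by
    rw [hB1, sum_pow_q hF, Finset.sum_comm]
    refine Eq.trans ?_ (Finset.sum_comm)
    rw [Finset.sum_comm]
    refine Finset.sum_congr rfl fun i _ => ?_
    rw [sum_pow_q hF]
    refine Finset.sum_congr rfl fun j _ => ?_
    rw [mul_pow, mul_pow, pow_q_pow_q hF, pow_q_pow_q hF]
    ring
  have h1 : B + B ^ q = 0 := by
    rw [← hv 1]
    unfold qf
    change _ = ∑ i, ∑ j, (Y i j ^ q + Y j i) * v i * v j ^ q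
    rw [hB1, ← hB1, hB2, hB1, ← Finset.sum_add_distrib]
    refine Finset.sum_congr rfl fun i _ => ?_
    rw [← Finset.sum_add_distrib]
    refine Finset.sum_congr rfl fun j _ => ?_
    ring
  have h2 : a * B + a ^ q * B ^ q = 0 := by
    rw [← hv 2]
    unfold qf
    change _ = ∑ i, ∑ j, (a * Y i j ^ q + a ^ q * Y j i) * v i * v j ^ q
    rw [hB2, hB1, Finset.mul_sum, Finset.mul_sum, ← Finset.sum_add_distrib]
    refine Finset.sum_congr rfl fun i _ => ?_
    rw [Finset.mul_sum, Finset.mul_sum, ← Finset.sum_add_distrib]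
    refine Finset.sum_congr rfl fun j _ => ?_
    ring
  refine ⟨v, hv0, h0, ?_⟩
  have h3 : (a ^ q - a) * B = 0 := by linear_combination a ^ q * h1 - h2
  exact (mul_eq_zero.1 h3).resolve_left (sub_ne_zero.2 ha)

/-- **no coprime class sizes in `PSU_n(q)`, `n ≥ 4`** -/
theorem noCop_psu (F : Type) [Field F] [Fintype F] (n q : ℕ) (hF : Fintype.card F = q ^ 2) (hn : 4 ≤ n) :
    Cfsg.Agent.H530.Cop.NoCop (Cfsg.PSU n F q) :=
  noCop_of_exists hF (by omega) (by omega) fun Y => exists_isotropic hF hn (mat Y)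

end Cfsg.Agent.H931.CopPsu
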