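import Mathlib
import Cfsg.Agent.GH.Cov.SpData
import Cfsg.Agent.Lib.AutSL2Out
import Cfsg.Prelude.Def_KGroupFacts

/-!
# `Out(PSp₄(q))`, `q` odd, has no subgroup of even order without subgroups of index two (task 278, for S3102)
-/

set_option autoImplicit false

namespace Cfsg.Agent.H931.OutSp4

open Cfsg
open Cfsg.Agent.ClassicalGeometry.SympAutSemi
open Cfsg.Agent.ClassicalGeometry.SympAutExists
open Cfsg.Agent.GH.Cov.SpSemi
open Cfsg.Agent.GH.Cov.SpPsi
open Cfsg.Agent.GH.Cov.SpData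

/-- a finite commutative group of even order has a subgroup of index two -/
theorem exists_index_two {A : Type*} [Group A] [Finite A] (hc : ∀ a b : A, a * b = b * a) (h : 2 ∣ Nat.card A) :
    ∃ N : Subgroup A, N.index = 2 := by
  let _ : CommGroup A := { (inferInstance : Group A) with mul_comm := hc }
  -- squaring is not injective, hence not surjective
  let f : A →* A := powMonoidHom 2
  have hf : ¬ Function.Injective f := by
    intro hinj
    have : Fact (Nat.Prime 2) := ⟨Nat.prime_two⟩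
    obtain ⟨a, ha⟩ := exists_prime_orderOf_dvd_card' 2 h
    have h1 : a ^ 2 = 1 := by rw [← ha]; exact pow_orderOf_eq_one a
    have h2 : f a = f 1 := by
      change a ^ 2 = (1 : A) ^ 2
      rw [h1, one_pow]
    rw [hinj h2, orderOf_one] at ha
    norm_num at ha
  have hs : ¬ Function.Surjective f := fun h => hf (Finite.injective_iff_surjective.2 h)
  have hr : f.range ≠ ⊤ := fun h => hs (MonoidHom.range_eq_top.1 h)
  -- maximal subgroup above the squares
  obtain ⟨N, hN, hle⟩ := (eq_top_or_exists_le_coatom f.range).resolve_left hr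
  refine ⟨N, ?_⟩
  obtain ⟨a, ha⟩ : ∃ a, a ∉ N := by
    by_contra hcon
    push Not at hcon
    exact hN.1 ((Subgroup.eq_top_iff' N).2 hcon)
  have hsq : ∀ b : A, b * b ∈ N := fun b => hle ⟨b, by change b ^ 2 = _; rw [pow_two]⟩
  have htop : N ⊔ Subgroup.zpowers a = ⊤ := by
    apply hN.2
    refine lt_of_le_of_ne le_sup_left fun h => ha ?_
    rw [h]
    exact Subgroup.mem_sup_right (Subgroup.mem_zpowers a)
  rw [Subgroup.index_eq_two_iff]
  refine ⟨a⁻¹, fun b => ?_⟩
  have hb : b ∈ N ⊔ Subgroup.zpowers a := htop ▸ Subgroup.mem_top b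
  obtain ⟨m, hm, k, ⟨j, rfl⟩, hmk⟩ := Subgroup.mem_sup.1 hb
  simp only at hmk
  rcases Int.even_or_odd' j with ⟨i, hi | hi⟩
  · -- even
    have h1 : a ^ j ∈ N := by
      rw [hi, mul_comm, zpow_mul]
      have : (a ^ i) ^ (2 : ℤ) = a ^ i * a ^ i := zpow_two _
      rw [this]
      exact hsq _
    have h2 : b ∈ N := hmk ▸ mul_mem hm h1
    refine Or.inr ⟨h2, fun h3 => ha ?_⟩
    have := (Subgroup.mul_mem_cancel_left N h2).1 h3
    exact (Subgroup.inv_mem_iff N).1 this
  · have h1 : a ^ j * a⁻¹ ∈ N := by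
      rw [hi, zpow_add, zpow_one, mul_inv_cancel_right, mul_comm, zpow_mul]
      have : (a ^ i) ^ (2 : ℤ) = a ^ i * a ^ i := zpow_two _
      rw [this]
      exact hsq _
    have h2 : b * a⁻¹ ∈ N := by
      rw [← hmk, mul_assoc]
      exact mul_mem hm h1
    refine Or.inl ⟨h2, fun h3 => ha ?_⟩
    have := (Subgroup.mul_mem_cancel_left N h3).1 h2
    exact (Subgroup.inv_mem_iff N).1 this

theorem out_Sp4 {F : Type*} [Field F] [Fintype F] (hF : Odd (Fintype.card F))
    (H : Subgroup (Cfsg.Out (Cfsg.PSp 2 F))) (hH : ∀ N : Subgroup H, N.Normal → N.index ≠ 2) :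
    Odd (Nat.card H) := by
  have h2 : (2 : F) ≠ 0 := Cfsg.Agent.GH.Cov.SLTwoFacts.two_ne_zero_of_odd hF
  have hfin : Finite (MulAut (PSp 2 F)) := inferInstance
  have hfin' : Finite (Out (PSp 2 F)) := Quotient.finite _
  let A : Subgroup (Out (PSp 2 F)) := (A0 F).map (QuotientGroup.mk' _)
  -- products of two elements outside `A` lie in `A`
  have hA : ∀ a b : Out (PSp 2 F), a ∉ A → b ∉ A → a * b ∈ A := by
    intro a b ha hb
    obtain ⟨φ, rfl⟩ := QuotientGroup.mk_surjective a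
    obtain ⟨ψ, rfl⟩ := QuotientGroup.mk_surjective b
    exact ⟨φ * ψ, mul_mem_A0 h2 (fun h => ha ⟨φ, h, rfl⟩) (fun h => hb ⟨ψ, h, rfl⟩), rfl⟩
  have hHA : H ≤ A := by
    by_contra hcon
    obtain ⟨h, hh, hhA⟩ := SetLike.not_le_iff_exists.1 hcon
    have hidx : (A.subgroupOf H).index = 2 := by
      rw [Subgroup.index_eq_two_iff]
      refine ⟨⟨h, hh⟩, fun b => ?_⟩
      by_cases hb : (b : Out (PSp 2 F)) ∈ A
      · refine Or.inr ⟨hb, fun h3 => hhA ?_⟩
        exact (Subgroup.mul_mem_cancel_left A hb).1 h3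
      · exact Or.inl ⟨hA _ _ hb hhA, hb⟩
    exact hH _ (Subgroup.normal_of_index_eq_two hidx) hidx
  -- `A` is commutative
  have hcomm : ∀ a ∈ A, ∀ b ∈ A, a * b = b * a := by
    rintro _ ⟨_, ⟨g, σ, hg, rfl⟩, rfl⟩ _ ⟨_, ⟨k, τ, hk, rfl⟩, rfl⟩
    have h1 := ((hg.mul hk).mul (hg.inv one_ne_zero)).mul (hk.inv one_ne_zero)
    simp only [inv_one, map_one, mul_one] at h1
    obtain ⟨x, hx⟩ := inn_of_linear (g := g * k * g⁻¹ * k⁻¹) h1 (by
      intro c
      have h3 : ∀ c, σ (τ c) = τ (σ c) := fun c =>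
        congrArg (fun e : F ≃+* F => e c) (Cfsg.Agent.Lib.AutSL2Out.ringEquiv_comm σ τ)
      change σ (τ (σ.symm (τ.symm c))) = c
      rw [h3, RingEquiv.apply_symm_apply, RingEquiv.apply_symm_apply])
    rw [map_mul, map_mul, map_mul, map_inv, map_inv] at hx
    rw [← map_mul, ← map_mul]
    apply QuotientGroup.eq_iff_div_mem.2
    refine ⟨x, ?_⟩
    rw [← hx, map_mul, div_eq_mul_inv, mul_inv_rev, ← mul_assoc]
  by_contra hodd
  rw [Nat.not_odd_iff_even, even_iff_two_dvd] at hodd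
  obtain ⟨N, hN⟩ := exists_index_two (A := H) (fun a b => Subtype.ext (hcomm _ (hHA a.2) _ (hHA b.2))) hodd
  exact hH N (Subgroup.normal_of_index_eq_two hN) hN

end Cfsg.Agent.H931.OutSp4
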